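import Cfsg.Agent.Solv.FixedPointFree
import Cfsg.Agent.Solv.Cores
import Cfsg.Agent.Char.Burnside

/-! Finite groups in which every element has order at most six: elementary facts. -/

set_option autoImplicit false
set_option linter.unusedSectionVars false

namespace Cfsg.Lib.Ord6

open Subgroup Cfsg.Lib.Solv

/-- Every element has order at most six. -/
def Six (G : Type*) [Group G] : Prop := ∀ g : G, orderOf g ≤ 6

variable {G : Type*} [Group G]

theorem Six.of_injective {H : Type*} [Group H] (h : Six G) (f : H →* G)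
    (hf : Function.Injective f) : Six H := fun g => by
  rw [← orderOf_injective f hf g]; exact h _

theorem Six.of_equiv {H : Type*} [Group H] (h : Six G) (e : G ≃* H) : Six H :=
  h.of_injective e.symm.toMonoidHom e.symm.injective

theorem Six.subgroup (h : Six G) (H : Subgroup G) : Six H :=
  h.of_injective H.subtype H.subtype_injective

variable [Finite G]

theorem Six.of_surjective {H : Type*} [Group H] (h : Six G) (f : G →* H)
    (hf : Function.Surjective f) : Six H := fun g => by
  obtain ⟨x, rfl⟩ := hf g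
  exact (Nat.le_of_dvd (orderOf_pos x) (orderOf_map_dvd f x)).trans (h x)

theorem Six.quotient (h : Six G) (N : Subgroup G) [N.Normal] : Six (G ⧸ N) :=
  h.of_surjective _ (QuotientGroup.mk'_surjective N)

theorem Six.le_of_dvd (h : Six G) {g : G} {n : ℕ} (hn : n ∣ orderOf g) : n ≤ 6 :=
  (Nat.le_of_dvd (orderOf_pos g) hn).trans (h g)

theorem Six.prime_cases (h : Six G) {p : ℕ} (hp : p.Prime) (hd : p ∣ Nat.card G) :
    p = 2 ∨ p = 3 ∨ p = 5 := by
  have := Fact.mk hp
  obtain ⟨x, hx⟩ := exists_prime_orderOf_dvd_card' p hd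
  have h1 := h x
  rw [hx] at h1
  have h2 := hp.two_le
  interval_cases p <;> first | omega | exact absurd hp (by norm_num)

theorem Six.not_dvd (h : Six G) {p : ℕ} (hp : p.Prime) (h7 : 7 ≤ p) : ¬ p ∣ Nat.card G := fun hd => by
  have := h.prime_cases hp hd
  omega

theorem Six.orderOf_eq_four (h : Six G) {g : G} (hg : 4 ∣ orderOf g) : orderOf g = 4 := by
  have h1 := h g
  have h2 := orderOf_pos g
  omega

theorem Six.orderOf_eq_five (h : Six G) {g : G} (hg : 5 ∣ orderOf g) : orderOf g = 5 := by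
  have h1 := h g
  have h2 := orderOf_pos g
  omega

theorem Six.pow_four (h : Six G) {g : G} {k : ℕ} (hg : g ^ 2 ^ k = 1) : g ^ 4 = 1 := by
  obtain ⟨j, -, hj⟩ := (Nat.dvd_prime_pow Nat.prime_two).1 (orderOf_dvd_of_pow_eq_one hg)
  have h1 := h g
  rw [hj] at h1
  have h2 : j ≤ 2 := by
    by_contra h3
    have := Nat.pow_le_pow_right (show 0 < 2 by norm_num) (show 3 ≤ j by omega)
    omega
  rw [← orderOf_dvd_iff_pow_eq_one, hj]
  exact pow_dvd_pow 2 h2

theorem Six.pow_prime (h : Six G) {p : ℕ} (hp : p.Prime) (h3 : 3 ≤ p) {g : G} {k : ℕ}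
    (hg : g ^ p ^ k = 1) : g ^ p = 1 := by
  obtain ⟨j, -, hj⟩ := (Nat.dvd_prime_pow hp).1 (orderOf_dvd_of_pow_eq_one hg)
  have h1 := h g
  rw [hj] at h1
  have h2 : j ≤ 1 := by
    by_contra h4
    have h5 := Nat.pow_le_pow_right hp.pos (show 2 ≤ j by omega)
    nlinarith
  rw [← orderOf_dvd_iff_pow_eq_one, hj]
  simpa using pow_dvd_pow p h2

theorem Six.pow_four_of_mem (h : Six G) {P : Subgroup G} (hP : IsPGroup 2 P) {g : G}
    (hg : g ∈ P) : g ^ 4 = 1 := by
  obtain ⟨k, hk⟩ := hP ⟨g, hg⟩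
  exact h.pow_four (k := k) (congrArg Subtype.val hk)

theorem Six.pow_prime_of_mem (h : Six G) {p : ℕ} (hp : p.Prime) (h3 : 3 ≤ p) {P : Subgroup G}
    (hP : IsPGroup p P) {g : G} (hg : g ∈ P) : g ^ p = 1 := by
  obtain ⟨k, hk⟩ := hP ⟨g, hg⟩
  exact h.pow_prime hp h3 (k := k) (congrArg Subtype.val hk)

theorem Six.mul_le (h : Six G) {x y : G} (hc : x * y = y * x)
    (hcop : (orderOf x).Coprime (orderOf y)) : orderOf x * orderOf y ≤ 6 := by
  rw [← (Commute.orderOf_mul_eq_mul_orderOf_of_coprime hc hcop)]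
  exact h _

/-- An element commuting with an element of order five has order dividing five. -/
theorem Six.pow_five (h : Six G) {x y : G} (hx : orderOf x = 5) (hc : x * y = y * x) :
    y ^ 5 = 1 := by
  by_cases h5 : 5 ∣ orderOf y
  · rw [← h.orderOf_eq_five h5, pow_orderOf_eq_one]
  · have h1 := h.mul_le hc (hx ▸ (Nat.prime_five.coprime_iff_not_dvd.2 h5))
    have h2 := orderOf_pos y
    rw [hx] at h1
    rw [orderOf_eq_one_iff.1 (show orderOf y = 1 by omega), one_pow]

theorem Six.eq_one_of_five (h : Six G) {x y : G} (hx : orderOf x = 5) (hc : x * y = y * x) {n : ℕ}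
    (hn : n.Coprime 5) (hy : y ^ n = 1) : y = 1 := by
  have := pow_gcd_eq_one.2 ⟨hy, h.pow_five hx hc⟩
  rwa [hn, pow_one] at this

theorem Six.fpf_five (h : Six G) {x : G} (hx : orderOf x = 5) {Q : Subgroup G}
    (hQ : (Nat.card Q).Coprime 5) : Q ⊓ centralizer {x} = ⊥ :=
  Fpf.inf_centralizer_eq_bot_iff.2 fun k hk hc =>
    h.eq_one_of_five hx hc.symm hQ
      (congrArg Subtype.val (pow_card_eq_one' (x := (⟨k, hk⟩ : Q))))

theorem coprime_five_of_two {Q : Subgroup G} (hQ : IsPGroup 2 Q) : (Nat.card Q).Coprime 5 :=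
  have := Fact.mk Nat.prime_two
  coprime_card_of_isPGroup hQ (by norm_num)

theorem orderOf_pow_five {x : G} (hx : orderOf x = 5) {i : ℕ} (hi : i.Coprime 5) :
    orderOf (x ^ i) = 5 := by
  rw [← hx]; exact Nat.Coprime.orderOf_pow (hx ▸ hi.symm)

/-- An element of order four commutes with no element of order three. -/
theorem Six.eq_one_of_four (h : Six G) {x y : G} (hx : orderOf x = 4) (hc : x * y = y * x)
    (hy : y ^ 3 = 1) : y = 1 := by
  by_contra h1
  have := Fact.mk Nat.prime_three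
  have h2 := orderOf_eq_prime hy h1
  have := h.mul_le hc (by rw [hx, h2]; norm_num)
  rw [hx, h2] at this
  omega

/-- A `2`-element commuting with an element of order three has order at most two. -/
theorem Six.mul_self_of_three (h : Six G) {x y : G} (hx : x ^ 4 = 1) (hc : x * y = y * x)
    (hy : y ^ 3 = 1) (hy1 : y ≠ 1) : x * x = 1 := by
  by_contra h1
  refine hy1 (h.eq_one_of_four ?_ hc hy)
  have := Fact.mk Nat.prime_two
  exact orderOf_eq_prime_pow (p := 2) (n := 1) (by simpa [sq] using h1) hx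

theorem Six.isSolvable_of_not_five (h : Six G) (h5 : ¬ 5 ∣ Nat.card G) : Group.IsSolvable G :=
  Char.isSolvable_of_prime_dvd_card Nat.prime_two Nat.prime_three G fun r hr hd => by
    rcases h.prime_cases hr hd with h1 | h1 | h1
    · exact Or.inl h1
    · exact Or.inr h1
    · exact absurd (h1 ▸ hd) h5

theorem Six.exists_five (h : Six G) (hs : ¬ Group.IsSolvable G) : ∃ x : G, orderOf x = 5 := by
  have := Fact.mk Nat.prime_five
  exact exists_prime_orderOf_dvd_card' 5 (by_contra fun h5 => hs (h.isSolvable_of_not_five h5))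

theorem Six.not_five_dvd_centralizer (h : Six G) {g : G} (hg : g ^ 5 ≠ 1) :
    ¬ 5 ∣ Nat.card (centralizer ({g} : Set G)) := fun h5 => by
  have := Fact.mk Nat.prime_five
  obtain ⟨x, hx⟩ := exists_prime_orderOf_dvd_card' 5 h5
  exact hg (h.pow_five (x := x) (by rw [orderOf_coe, hx]) (mem_centralizer_singleton_iff.1 x.2))

theorem Six.isSolvable_centralizer (h : Six G) {g : G} (hg : g ^ 5 ≠ 1) :
    Group.IsSolvable (centralizer ({g} : Set G)) :=
  (h.subgroup _).isSolvable_of_not_five (h.not_five_dvd_centralizer hg)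

/-- An element inverting an element of order five is an involution. -/
theorem Six.mul_self_of_inv (h : Six G) {x s : G} (hx : orderOf x = 5) (hs : s * x * s⁻¹ = x⁻¹) :
    s * s = 1 := by
  have h1 : x * (s * s) = s * s * x := by
    have h2 : s * x = x⁻¹ * s := by rw [← hs]; group
    have h3 : s * x⁻¹ = x * s := by
      calc s * x⁻¹ = (s * x * s⁻¹)⁻¹ * s := by group
        _ = x * s := by rw [hs, inv_inv]
    rw [mul_assoc s s, h2, ← mul_assoc s, h3, mul_assoc]
  have h5 := h.pow_five hx h1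
  by_contra h0
  have := Fact.mk Nat.prime_five
  have h6 : orderOf (s * s) = 5 := orderOf_eq_prime h5 h0
  have h7 : orderOf s = 5 := h.orderOf_eq_five (by rw [← h6, ← sq]; exact orderOf_pow_dvd 2)
  have h8 : s = (s * s) ^ 3 := by
    rw [← sq, ← pow_mul, show 2 * 3 = 5 + 1 by rfl, pow_succ, ← h7, pow_orderOf_eq_one, one_mul]
  have h9 : x * s = s * x := by
    rw [h8]; exact (Commute.pow_right h1 3).eq
  rw [← h9, mul_inv_cancel_right, ← mul_eq_one_iff_eq_inv, ← sq, ← orderOf_dvd_iff_pow_eq_one, hx] at hs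
  omega

theorem Six.orderOf_of_map_four (h : Six G) {H : Type*} [Group H] (f : G →* H) {g : G}
    (hg : orderOf (f g) = 4) : orderOf g = 4 :=
  h.orderOf_eq_four (hg ▸ orderOf_map_dvd f g)

theorem Six.orderOf_of_map_five (h : Six G) {H : Type*} [Group H] (f : G →* H) {g : G}
    (hg : orderOf (f g) = 5) : orderOf g = 5 :=
  h.orderOf_eq_five (hg ▸ orderOf_map_dvd f g)

theorem Six.pow_twelve (h : Six G) {g : G} (hg : 3 ∣ orderOf g) : (g ^ 4) ^ 3 = 1 := by
  have h1 := h g
  have h2 := orderOf_pos g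
  rw [← pow_mul, ← orderOf_dvd_iff_pow_eq_one]
  rcases (by omega : orderOf g = 3 ∨ orderOf g = 6) with h3 | h3 <;> rw [h3] <;> norm_num

/-- Elements of order three lift to elements of order three. -/
theorem Six.exists_lift_three (h : Six G) {H : Type*} [Group H] (f : G →* H) {g : G}
    (hg : f g ^ 3 = 1) (hg1 : f g ≠ 1) : (g ^ 4) ^ 3 = 1 ∧ f (g ^ 4) = f g := by
  have := Fact.mk Nat.prime_three
  refine ⟨h.pow_twelve (orderOf_eq_prime hg hg1 ▸ orderOf_map_dvd f g), ?_⟩
  rw [map_pow, pow_succ, hg, one_mul]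

open scoped IsMulCommutative in
/-- A Frobenius group with cyclic complement acting on an abelian normal subgroup through a
quotient. -/
theorem frob {Γ : Type*} [Group Γ] (f : G →* Γ) (hf : Function.Surjective f) {V : Subgroup G}
    [V.Normal] [IsMulCommutative V] (hker : f.ker ≤ centralizer (V : Set G)) {K : Subgroup Γ}
    {h : G} {n : ℕ} (hn : 0 < n) (hK : f h ∈ normalizer (K : Set Γ))
    (hpow : ∀ v ∈ V, (v * h) ^ n = 1)
    (hfpf : ∀ i, 0 < i → i < n → K ⊓ centralizer {f h ^ i} = ⊥)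
    (hcop : (Nat.card V).Coprime (Nat.card K)) : K.comap f ≤ centralizer (V : Set G) := by
  have : Finite Γ := Finite.of_surjective f hf
  have : NeZero n := ⟨hn.ne'⟩
  let ρ : Γ →* MulAut V := f.liftOfSurjective hf ⟨MulAut.conjNormal, fun g hg => by
    ext v
    have := hker hg v v.2
    simp [← this]⟩
  have hρ : ∀ g (v : V), (ρ (f g) v : G) = g * v * g⁻¹ := fun g v => by
    simp [ρ]
  let _ : MulDistribMulAction Γ V := MulDistribMulAction.compHom V ρ
  have hs : ∀ g (v : V), ((f g • v : V) : G) = g * v * g⁻¹ := hρ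
  have h1 : ∀ (v : V) (i : ℕ), ((∏ j ∈ Finset.range i, f h ^ j • v : V) : G) =
      (v * h) ^ i * (h ^ i)⁻¹ := by
    intro v i
    induction i with
    | zero => simp
    | succ i ih =>
      rw [Finset.prod_range_succ, coe_mul, ih, ← map_pow, hs, pow_succ, pow_succ]
      group
  have h2 : ∀ v : V, ∏ j : Fin n, f h ^ (j : ℕ) • v = 1 := fun v => by
    refine (Fin.prod_univ_eq_prod_range (fun j => f h ^ j • v) n).trans (Subtype.ext ?_)
    have := hpow 1 V.one_mem
    rw [one_mul] at this
    rw [h1, hpow v v.2, this]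
    simp
  intro g hg v hv
  obtain ⟨w, hw⟩ := (powCoprime hcop).surjective ⟨v, hv⟩
  have h3 : f g • w ^ Nat.card K = w ^ Nat.card K := by
    refine Fpf.smul_pow_card_of_family K (0 : Fin n)
      (fun k i => k * f h ^ (i : ℕ) * (k : Γ)⁻¹) w (by simp) (fun k => ?_) (fun i hi => ?_) hg
    · simp only [mul_smul]
      rw [← Finset.smul_prod', h2, smul_one]
    · refine ⟨f h ^ (i : ℕ), fun k => ⟨k * f h ^ (i : ℕ) * (k : Γ)⁻¹ * (f h ^ (i : ℕ))⁻¹, ?_⟩, ?_,
        fun k => by simp⟩
      · have := K.mul_mem k.2 (conj_mem_of_mem_normalizer (pow_mem hK i) (K.inv_mem k.2))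
        simpa [mul_assoc] using this
      · intro x y e
        exact Subtype.ext (Fpf.commutator_injOn
          (hfpf i (Nat.pos_of_ne_zero fun e => hi (Fin.ext e)) i.2) x.2 y.2
          (mul_right_cancel (congrArg Subtype.val e)))
  have h4 := congrArg Subtype.val h3
  rw [hs, show w ^ Nat.card K = ⟨v, hv⟩ from hw] at h4
  exact (mul_inv_eq_iff_eq_mul.1 h4).symm

end Cfsg.Lib.Ord6
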