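import Cfsg.Agent.Six.Basic
import Cfsg.Agent.Known.FourGroup
import Mathlib.GroupTheory.SpecificGroups.Alternating.Simple

/-! Finite computations in the symmetric groups of degree five and six. -/

set_option autoImplicit false

namespace Cfsg.Lib.Ord6

open Subgroup Equiv

abbrev A5 := alternatingGroup (Fin 5)
abbrev A6 := alternatingGroup (Fin 6)
abbrev S5 := Perm (Fin 5)
abbrev S6 := Perm (Fin 6)

theorem s5_inv : ∀ t : S5, t * t = 1 → t ≠ 1 → Perm.sign t = 1 →
    ∃ x : S5, t * x * t * x = 1 ∧ x ≠ 1 ∧ x * x * x * x * x = 1 := by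
  decide +kernel

theorem s5_four : ∀ t : S5, t * t * (t * t) = 1 → Perm.sign t = 1 → t * t = 1 := by
  decide +kernel

set_option synthInstance.maxSize 2000 in
theorem s5_three : ∀ a : S5, a * a = 1 → a ≠ 1 → Perm.sign a = 1 → ∀ b : S5, b * b = 1 → b ≠ 1 →
    a * b = b * a → a ≠ b → Perm.sign b = 1 →
    ∃ y : S5, y * a = b * y ∧ y * b = a * b * y ∧ y * y * y = 1 := by
  decide +kernel

theorem s5_nc : ∀ t : S5, t * t = 1 → t ≠ 1 → Perm.sign t = 1 → ∀ y : S5, y * t = t * y →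
    y * y * y = 1 → y = 1 := by
  decide +kernel

def c6 : S6 := swap 0 1 * swap 1 2
def d6 : S6 := swap 3 4 * swap 4 5
def u6 : S6 := swap 0 3 * swap 3 1 * swap 1 4 * swap 2 5

theorem s6_K : ∀ g : S6, c6 * g = g * c6 → d6 * g = g * d6 →
    (c6 * (u6 * g * u6⁻¹) = (u6 * g * u6⁻¹) * c6 ∧ d6 * (u6 * g * u6⁻¹) = (u6 * g * u6⁻¹) * d6) ∧
      g * g * g = 1 ∧ (g * (u6 * u6) = u6 * u6 * g → g = 1) := by
  decide +kernel

theorem mem_alt_of_odd {n : ℕ} {g : Perm (Fin n)} {k : ℕ} (hk : Odd k) (h : g ^ k = 1) :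
    g ∈ alternatingGroup (Fin n) := by
  have h1 := congrArg Perm.sign h
  rw [map_pow, map_one] at h1
  rcases Int.units_eq_one_or (Perm.sign g) with h2 | h2
  · exact Perm.mem_alternatingGroup.2 h2
  · rw [h2, hk.neg_one_pow] at h1
    exact absurd h1 (by decide)

theorem a5_inv {t : A5} (h : t * t = 1) (h1 : t ≠ 1) :
    ∃ x : A5, orderOf x = 5 ∧ t * x * t⁻¹ * x = 1 := by
  obtain ⟨x, e1, e2, e3⟩ := s5_inv t (congrArg Subtype.val h) (fun e => h1 (Subtype.ext e)) t.2
  have e4 : x ^ 5 = 1 := by rw [← e3]; simp [pow_succ]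
  have := Fact.mk Nat.prime_five
  refine ⟨⟨x, mem_alt_of_odd (by decide) e4⟩, orderOf_eq_prime (Subtype.ext e4)
    (fun e => e2 (congrArg Subtype.val e)), ?_⟩
  rw [inv_eq_of_mul_eq_one_right h]
  exact Subtype.ext e1

theorem a5_four {t : A5} (h : t ^ 4 = 1) : t * t = 1 :=
  Subtype.ext (s5_four t (by
    simpa [pow_succ, mul_assoc] using (show (t : S5) ^ 4 = 1 from congrArg Subtype.val h)) t.2)

theorem a5_three {a b : A5} (ha : a * a = 1) (hb : b * b = 1) (ha1 : a ≠ 1) (hb1 : b ≠ 1)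
    (hab : a * b = b * a) (hne : a ≠ b) :
    ∃ y : A5, y ^ 3 = 1 ∧ y * a * y⁻¹ = b ∧ y * b * y⁻¹ = a * b := by
  obtain ⟨y, e1, e2, e3⟩ := s5_three a (congrArg Subtype.val ha) (fun e => ha1 (Subtype.ext e)) a.2
    b (congrArg Subtype.val hb) (fun e => hb1 (Subtype.ext e)) (congrArg Subtype.val hab)
    (fun e => hne (Subtype.ext e)) b.2
  have e4 : y ^ 3 = 1 := by rw [← e3]; simp [pow_succ]
  exact ⟨⟨y, mem_alt_of_odd (by decide) e4⟩, Subtype.ext e4,
    mul_inv_eq_iff_eq_mul.2 (Subtype.ext e1), mul_inv_eq_iff_eq_mul.2 (Subtype.ext e2)⟩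

theorem a5_nc {t y : A5} (h : t * t = 1) (h1 : t ≠ 1) (hc : y * t = t * y) (hy : y ^ 3 = 1) :
    y = 1 :=
  Subtype.ext (s5_nc t (congrArg Subtype.val h) (fun e => h1 (Subtype.ext e)) t.2 y
    (congrArg Subtype.val hc) (by
      simpa [pow_succ] using (show (y : S5) ^ 3 = 1 from congrArg Subtype.val hy)))

theorem card_A5 : Nat.card A5 = 60 := by
  rw [nat_card_alternatingGroup]; simp [Nat.factorial]

theorem card_A6 : Nat.card A6 = 360 := by
  rw [nat_card_alternatingGroup]; simp [Nat.factorial]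

theorem card_S5 : Nat.card S5 = 120 := by
  rw [Nat.card_eq_fintype_card, Fintype.card_perm, Fintype.card_fin]; rfl

theorem card_S6 : Nat.card S6 = 720 := by
  rw [Nat.card_eq_fintype_card, Fintype.card_perm, Fintype.card_fin]; rfl

/-- A Frobenius subgroup with cyclic complement of order four whose kernel has odd order and
normally generates an element of order five. -/
def FrobFour (Γ : Type*) [Group Γ] : Prop :=
  ∃ (K : Subgroup Γ) (u : Γ), orderOf u = 4 ∧ u ∈ normalizer (K : Set Γ) ∧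
    K ⊓ centralizer {u ^ 2} = ⊥ ∧ (Nat.card K).Coprime 2 ∧
    ∃ a ∈ K, ∃ g : Γ, orderOf (a * (g * a * g⁻¹)) = 5

theorem orderOf_eq_four {Γ : Type*} [Group Γ] {u : Γ} (h1 : u * u ≠ 1) (h2 : u * u * (u * u) = 1) :
    orderOf u = 4 :=
  have := Fact.mk Nat.prime_two
  orderOf_eq_prime_pow (p := 2) (n := 1) (by simpa [sq] using h1)
    (by rw [← h2]; simp [pow_succ, mul_assoc])

theorem frobFour_sub (H : Subgroup S6) (hH : A6 ≤ H) : FrobFour H := by
  have := Fact.mk Nat.prime_three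
  have := Fact.mk Nat.prime_five
  have hm : ∀ g : H, g ∈ (centralizer {c6, d6}).subgroupOf H ↔
      c6 * g = g * c6 ∧ d6 * g = g * d6 := fun g => by
    simp [mem_subgroupOf, mem_centralizer_iff]
  have hu : u6 ∈ H := hH (by rw [Perm.mem_alternatingGroup]; decide +kernel)
  have hc : c6 ∈ H := hH (by rw [Perm.mem_alternatingGroup]; decide +kernel)
  have hg : swap 0 3 * swap 1 4 ∈ H := hH (by rw [Perm.mem_alternatingGroup]; decide +kernel)
  refine ⟨(centralizer {c6, d6}).subgroupOf H, ⟨u6, hu⟩, orderOf_eq_four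
    (fun e => absurd (congrArg Subtype.val e) (show ¬ u6 * u6 = 1 by decide +kernel))
    (Subtype.ext (show u6 * u6 * (u6 * u6) = 1 by decide +kernel)),
    Solv.mem_normalizer_of_conj_mem fun g hg => ?_,
    Solv.Fpf.inf_centralizer_eq_bot_iff.2 fun g hg e => ?_, ?_, ⟨c6, hc⟩, ?_, ⟨_, hg⟩,
    orderOf_eq_prime (Subtype.ext ?_) fun e => absurd (congrArg Subtype.val e) ?_⟩
  · exact (hm _).2 (s6_K g ((hm g).1 hg).1 ((hm g).1 hg).2).1
  · exact Subtype.ext ((s6_K g ((hm g).1 hg).1 ((hm g).1 hg).2).2.2 (by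
      simpa [sq] using congrArg Subtype.val e))
  · refine Solv.coprime_card_of_isPGroup (p := 3) (Solv.PG.isPGroup_of_forall_mem fun g hg =>
      ⟨1, Subtype.ext ?_⟩) (by norm_num)
    simpa [pow_succ] using (s6_K g ((hm g).1 hg).1 ((hm g).1 hg).2).2.1
  · rw [hm]; exact ⟨rfl, show d6 * c6 = c6 * d6 by decide +kernel⟩
  · change (c6 * (swap 0 3 * swap 1 4 * c6 * (swap 0 3 * swap 1 4)⁻¹)) ^ 5 = 1
    decide +kernel
  · change ¬ (c6 * (swap 0 3 * swap 1 4 * c6 * (swap 0 3 * swap 1 4)⁻¹)) = 1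
    decide +kernel

def c5 : S5 := swap 0 1 * swap 1 2 * swap 2 3 * swap 3 4
def u5 : S5 := swap 1 2 * swap 2 4 * swap 4 3

theorem s5_K : ∀ g : S5, g * c5 = c5 * g → (u5 * g * u5⁻¹) * c5 = c5 * (u5 * g * u5⁻¹) ∧
      g * g * g * g * g = 1 ∧ (g * (u5 * u5) = u5 * u5 * g → g = 1) := by
  decide +kernel

theorem frobFour_S5 : FrobFour S5 := by
  have := Fact.mk Nat.prime_five
  refine ⟨centralizer {c5}, u5, orderOf_eq_four (by decide +kernel) (by decide +kernel),
    Solv.mem_normalizer_of_conj_mem fun g hg => ?_,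
    Solv.Fpf.inf_centralizer_eq_bot_iff.2 fun g hg e => ?_, ?_, c5,
    mem_centralizer_singleton_iff.2 rfl, 1,
    orderOf_eq_prime (by decide +kernel) (by decide +kernel)⟩
  · exact mem_centralizer_singleton_iff.2 (s5_K g (mem_centralizer_singleton_iff.1 hg)).1
  · exact (s5_K g (mem_centralizer_singleton_iff.1 hg)).2.2 (by simpa [sq] using e)
  · refine Solv.coprime_card_of_isPGroup (p := 5) (Solv.PG.isPGroup_of_forall_mem fun g hg =>
      ⟨1, ?_⟩) (by norm_num)
    rw [← (s5_K g (mem_centralizer_singleton_iff.1 hg)).2.1]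
    simp [pow_succ]

theorem FrobFour.of_equiv {Γ Δ : Type*} [Group Γ] [Group Δ] [Finite Γ] (h : FrobFour Γ)
    (e : Γ ≃* Δ) : FrobFour Δ := by
  have : Finite Δ := Finite.of_equiv _ e.toEquiv
  obtain ⟨K, u, h1, h2, h3, h4, a, ha, g, h5⟩ := h
  refine ⟨K.map e.toMonoidHom, e u, by rw [e.orderOf_eq, h1], ?_, ?_, ?_, e a,
    mem_map_of_mem _ ha, e g, ?_⟩
  · refine Solv.mem_normalizer_of_conj_mem ?_
    rintro _ ⟨x, hx, rfl⟩
    exact ⟨_, Solv.conj_mem_of_mem_normalizer h2 hx, by simp⟩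
  · simpa using Solv.Fpf.map e.toMonoidHom (pow_mem h2 2) h3
  · exact h4.coprime_dvd_left (card_map_dvd _ _)
  · rw [← h5, ← e.orderOf_eq]; simp

theorem frobFour_A6 : FrobFour A6 := frobFour_sub _ le_rfl

theorem frobFour_S6 : FrobFour S6 := (frobFour_sub ⊤ le_top).of_equiv topEquiv

/-- A subgroup isomorphic to the alternating group of degree four. -/
def HasA4 (Γ : Type*) [Group Γ] : Prop :=
  ∃ a b y : Γ, Known.IsFourPair a b ∧ y ^ 3 = 1 ∧ y * a * y⁻¹ = b ∧ y * b * y⁻¹ = a * b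

theorem HasA4.map {Γ Δ : Type*} [Group Γ] [Group Δ] (h : HasA4 Γ) (f : Γ →* Δ)
    (hf : Function.Injective f) : HasA4 Δ := by
  obtain ⟨a, b, y, h1, h2, h3, h4⟩ := h
  exact ⟨f a, f b, f y, h1.map f hf, by rw [← map_pow, h2, map_one], by rw [← h3]; simp,
    by rw [← map_mul f a b, ← h4]; simp⟩

theorem hasA4_alt {n : ℕ} {a b y : Perm (Fin n)} (h1 : Known.IsFourPair a b) (h2 : y ^ 3 = 1)
    (h3 : y * a * y⁻¹ = b) (h4 : y * b * y⁻¹ = a * b) : HasA4 (alternatingGroup (Fin n)) := by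
  have hy := mem_alt_of_odd (by decide) h2
  have ha : a ∈ alternatingGroup (Fin n) := by
    have := congrArg Perm.sign h4
    simp only [map_mul, map_inv, mul_inv_cancel_comm] at this
    exact Perm.mem_alternatingGroup.2 (by simpa using this.symm)
  have hb : b ∈ alternatingGroup (Fin n) := h3 ▸ mul_mem (mul_mem hy ha) (inv_mem hy)
  exact ⟨⟨a, ha⟩, ⟨b, hb⟩, ⟨y, hy⟩, ⟨Subtype.ext h1.sq_a, Subtype.ext h1.sq_b, Subtype.ext h1.comm,
    fun e => h1.a_ne (congrArg Subtype.val e), fun e => h1.b_ne (congrArg Subtype.val e),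
    fun e => h1.ne (congrArg Subtype.val e)⟩, Subtype.ext h2, Subtype.ext h3, Subtype.ext h4⟩

theorem hasA4_A5 : HasA4 A5 :=
  hasA4_alt (a := swap 0 1 * swap 2 3) (b := swap 0 2 * swap 1 3) (y := swap 1 2 * swap 2 3)
    ⟨by decide +kernel, by decide +kernel, by decide +kernel, by decide +kernel, by decide +kernel,
      by decide +kernel⟩ (by decide +kernel) (by decide +kernel) (by decide +kernel)

theorem hasA4_A6 : HasA4 A6 :=
  hasA4_alt (a := swap 0 1 * swap 2 3) (b := swap 0 2 * swap 1 3) (y := swap 1 2 * swap 2 3)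
    ⟨by decide +kernel, by decide +kernel, by decide +kernel, by decide +kernel, by decide +kernel,
      by decide +kernel⟩ (by decide +kernel) (by decide +kernel) (by decide +kernel)

theorem s6_six : ∀ g : S6, g * g * g * (g * g * g) = 1 → Perm.sign g = 1 →
    g * g = 1 ∨ g * g * g = 1 := by
  decide +kernel

theorem a6_orderOf_ne_six (g : A6) : orderOf g ≠ 6 := fun h => by
  have h1 : (g : S6) ^ 6 = 1 := congrArg Subtype.val (h ▸ pow_orderOf_eq_one g)
  rcases s6_six g (by simpa [pow_succ, mul_assoc] using h1) g.2 with h2 | h2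
  · have := orderOf_dvd_of_pow_eq_one (x := g) (n := 2) (Subtype.ext (by simpa [sq] using h2))
    rw [h] at this
    omega
  · have := orderOf_dvd_of_pow_eq_one (x := g) (n := 3) (Subtype.ext (by simpa [pow_succ] using h2))
    rw [h] at this
    omega

theorem s6_five : (Finset.univ.filter fun g : S6 => g * g * g * g * g = 1).card = 145 := by
  decide +kernel

theorem commutator_perm_ne_top (n : ℕ) : commutator (Perm (Fin (n + 2))) ≠ ⊤ := fun h => by
  have h1 : commutator (Perm (Fin (n + 2))) ≤ Perm.sign.ker := Abelianization.commutator_subset_ker _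
  have := h1 (h ▸ mem_top (swap 0 1))
  rw [MonoidHom.mem_ker, Perm.sign_swap (by simp)] at this
  exact absurd this (by decide)

end Cfsg.Lib.Ord6
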