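import Cfsg.Agent.Six.Mod
import Cfsg.Agent.Solv.CoprimeGen
import Cfsg.Agent.Solv.PSolvable

/-! An elementary abelian subgroup outside the largest normal `2`-subgroup of a solvable group with
element orders at most six; counting elements of order four. -/

set_option autoImplicit false
set_option linter.unusedSectionVars false

namespace Cfsg.Lib.Ord6

open Subgroup Cfsg.Lib.Solv
open scoped Pointwise

universe u

variable {G : Type u} [Group G] [Finite G]

theorem mem_zpowers_two {u x : G} (hu : u * u = 1) (hx : x ∈ zpowers u) : x = 1 ∨ x = u := by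
  obtain ⟨k, rfl⟩ := mem_zpowers_iff.mp hx
  have h2 : u ^ (2 : ℤ) = 1 := by rw [zpow_two]; exact hu
  rcases Int.even_or_odd' k with ⟨m, rfl | rfl⟩
  · left; rw [zpow_mul, h2, one_zpow]
  · right; rw [zpow_add, zpow_mul, h2, one_zpow, one_mul, zpow_one]

theorem Six.exists_step (h : Six G) (h5 : ¬ 5 ∣ Nat.card G) {V : Subgroup G}
    (hV : ∀ v ∈ V, v * v = 1) (hn : ¬ V ≤ pCore 2 G) :
    ∃ (Q : Subgroup G) (y a : G), IsPGroup 2 Q ∧ pCore 2 G ≤ Q ∧ V ≤ normalizer (Q : Set G) ∧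
      y ∈ normalizer (Q : Set G) ∧ Nat.card V = 2 * Nat.card (V ⊓ Q : Subgroup G) ∧ a ∈ V ∧
      y ^ 3 = 1 ∧ y ≠ 1 ∧ a * y * a⁻¹ = y⁻¹ := by
  have := Fact.mk Nat.prime_two
  have := h.isSolvable_of_not_five h5
  set π := QuotientGroup.mk' (pCore 2 G) with hπ
  have hπs : Function.Surjective π := QuotientGroup.mk'_surjective _
  set R := pPrimeCore 2 (G ⧸ pCore 2 G) with hR
  have hRc : centralizer (R : Set (G ⧸ pCore 2 G)) ≤ R :=
    (IsPSolvable.of_isSolvable 2 _).centralizer_pPrimeCore_le (pCore_quotient_pCore 2 G)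
  have hA : ∀ a ∈ V.map π, a * a = 1 := by
    rintro _ ⟨v, hv, rfl⟩
    rw [← map_mul, hV v hv, map_one]
  have hA2 := isPGroup_of_mul_self hA
  have := (isElementaryAbelian_of_mul_self hA).1
  have hA0 : V.map π ≠ ⊥ := fun e => hn (by
    rwa [Subgroup.map_eq_bot_iff, hπ, QuotientGroup.ker_mk'] at e)
  have hcop := coprime_card_of_isPGroup hA2 (coprime_card_pPrimeCore 2 (G ⧸ pCore 2 G))
  obtain ⟨B, hBA, hB, hne⟩ : ∃ B ≤ V.map π, B.relIndex (V.map π) = 2 ∧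
      ¬ R ⊓ centralizer (B : Set _) ≤ centralizer (V.map π : Set _) := by
    by_contra h1
    push Not at h1
    have h2 := Coprime.le_of_forall_hyperplane (p := 2) (fun a ha => (pow_two a).trans (hA a ha)) hA0
      le_normalizer_of_normal hcop h1
    exact hA0 (card_eq_one.1 ((Nat.coprime_self _).1
      (hcop.coprime_dvd_right (card_dvd_of_le ((le_centralizer_iff.1 h2).trans hRc)))))
  obtain ⟨r, hr, hr'⟩ := SetLike.not_le_iff_exists.1 hne
  obtain ⟨_, ⟨a, ha, rfl⟩, hra⟩ : ∃ a ∈ V.map π, a * r ≠ r * a := by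
    by_contra h1
    push Not at h1
    exact hr' h1
  obtain ⟨r, rfl⟩ := hπs r
  have haa : a⁻¹ = a := inv_eq_of_mul_eq_one_right (hV a ha)
  have h1 : π (r * a * r⁻¹ * a⁻¹) ∈ R := by
    have := R.mul_mem hr.1 (Normal.conj_mem inferInstance _ (R.inv_mem hr.1) (π a))
    simpa [mul_assoc] using this
  have h2 : π (r * a * r⁻¹ * a⁻¹) ≠ 1 := fun e => hra (by
    rw [map_mul, map_mul, map_mul, map_inv, map_inv, mul_inv_eq_one, mul_inv_eq_iff_eq_mul] at e
    exact e.symm)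
  have h3 : π (r * a * r⁻¹ * a⁻¹) ^ 3 = 1 := by
    have h4 := (coprime_card_pPrimeCore 2 (G ⧸ pCore 2 G)).coprime_dvd_left (R.orderOf_dvd_natCard h1)
    have h6 : ¬ 5 ∣ orderOf (π (r * a * r⁻¹ * a⁻¹)) := fun e =>
      h5 ((e.trans (orderOf_map_dvd π _)).trans (orderOf_dvd_natCard _))
    have h7 := h.quotient _ (π (r * a * r⁻¹ * a⁻¹))
    have h8 := orderOf_pos (π (r * a * r⁻¹ * a⁻¹))
    have h9 := orderOf_eq_one_iff.not.2 h2
    rw [Nat.coprime_two_right, Nat.odd_iff] at h4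
    rw [← orderOf_dvd_iff_pow_eq_one, show orderOf (π (r * a * r⁻¹ * a⁻¹)) = 3 by omega]
  obtain ⟨h4, h6⟩ := h.exists_lift_three π h3 h2
  have hcA : ∀ v ∈ V, π v ∈ centralizer (B : Set _) := fun v hv b hb =>
    comm_of_mul_self hA (hBA hb) (mem_map_of_mem _ hv)
  have hnm : ∀ g, π g ∈ centralizer (B : Set _) → g ∈ normalizer (B.comap π : Set G) := fun g hg =>
    mem_normalizer_of_conj_mem fun q hq => by
      rw [mem_comap, map_mul, map_mul, ← hg _ hq, map_inv, mul_inv_cancel_right]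
      exact hq
  refine ⟨B.comap π, (r * a * r⁻¹ * a⁻¹) ^ 4, a, (hA2.to_le hBA).comap_of_ker_isPGroup π (by
    rw [hπ, QuotientGroup.ker_mk']; exact pCore_isPGroup 2 G), QuotientGroup.le_comap_mk' _ _,
    fun v hv => hnm v (hcA v hv), hnm _ ?_, ?_, ha, h4, fun e => h2 (by rw [← h6, e, map_one]), ?_⟩
  · rw [h6, map_mul, map_mul, map_mul, map_inv, map_inv]
    exact mul_mem (mul_mem (mul_mem hr.2 (hcA a ha)) (inv_mem hr.2)) (inv_mem (hcA a ha))
  · rw [← card_inf_mul_relIndex (B.comap π) V, relIndex_comap, hB, inf_comm, mul_comm]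
  · rw [← conj_pow, ← inv_pow]
    congr 1
    calc a * (r * a * r⁻¹ * a⁻¹) * a⁻¹ = a * r * a * r⁻¹ * (a * a)⁻¹ := by group
      _ = a * r * a⁻¹ * r⁻¹ := by rw [hV a ha, haa]; group
      _ = _ := by group

theorem Six.exists_step' (h : Six G) {H V : Subgroup G} (h5 : ¬ 5 ∣ Nat.card H) (hVH : V ≤ H)
    (hV : ∀ v ∈ V, v * v = 1) (hn : ¬ V ≤ (pCore 2 H).map H.subtype) :
    ∃ (Q : Subgroup G) (y a : G), IsPGroup 2 Q ∧ (pCore 2 H).map H.subtype ≤ Q ∧
      V ≤ normalizer (Q : Set G) ∧ y ∈ normalizer (Q : Set G) ∧ y ∈ H ∧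
      Nat.card V = 2 * Nat.card (V ⊓ Q : Subgroup G) ∧ a ∈ V ∧
      y ^ 3 = 1 ∧ y ≠ 1 ∧ a * y * a⁻¹ = y⁻¹ := by
  obtain ⟨Q, y, a, h1, h2, h3, h4, h6, h7, h8, h9, h10⟩ := (h.subgroup H).exists_step h5
    (V := V.subgroupOf H) (fun v hv => Subtype.ext (hV v hv)) fun e => hn (by
      rw [← map_subgroupOf_eq_of_le hVH]; exact map_mono e)
  have hnm : ∀ g : H, g ∈ normalizer (Q : Set H) → (g : G) ∈ normalizer (Q.map H.subtype : Set G) :=
    fun g hg => mem_normalizer_of_conj_mem (by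
      rintro _ ⟨q, hq, rfl⟩
      exact mem_map_of_mem H.subtype (conj_mem_of_mem_normalizer hg hq))
  refine ⟨Q.map H.subtype, y, a, h1.map _, map_mono h2, fun v hv => hnm ⟨v, hVH hv⟩ (h3 hv),
    hnm y h4, y.2, ?_, h7, congrArg Subtype.val h8, fun e => h9 (Subtype.ext e),
    congrArg Subtype.val h10⟩
  rw [← card_subgroupOf_of_le hVH, h6, ← card_map_subtype, map_inf _ _ _ H.subtype_injective,
    map_subgroupOf_eq_of_le hVH]

/-- A group of order nine normalising `Q` moves an element of order four to eighteen elements. -/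
theorem Six.eighteen_le (h : Six G) {Q E : Subgroup G} (hQ : IsPGroup 2 Q)
    (hEQ : E ≤ normalizer (Q : Set G)) (hE : Nat.card E = 9) {q : G} (hq : q ∈ Q) (hq2 : q * q ≠ 1) :
    18 ≤ {x | x ∈ Q ∧ x * x ≠ 1}.ncard := by
  have := Fact.mk Nat.prime_three
  have hE3 : ∀ e ∈ E, e ^ 3 = 1 := fun e he =>
    h.pow_prime_of_mem Nat.prime_three le_rfl (IsPGroup.of_card (n := 2) hE) he
  have h1 : ∀ {p : G}, p ∈ Q → p * p ≠ 1 → ∀ e ∈ E, e * p * e⁻¹ = p → e = 1 := fun hp hp2 e he e1 => by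
    by_contra h2
    exact hp2 (h.mul_self_of_three (h.pow_four_of_mem hQ hp) (mul_inv_eq_iff_eq_mul.1 e1).symm
      (hE3 e he) h2)
  have hq' : q⁻¹ * q⁻¹ ≠ 1 := by rwa [← mul_inv_rev, inv_ne_one]
  have h2 : ∀ e ∈ E, e * q * e⁻¹ ≠ q⁻¹ := fun e he e1 => by
    have h3 : e * e = 1 := h1 hq hq2 _ (E.mul_mem he he) (by
      calc e * e * q * (e * e)⁻¹ = e * (e * q * e⁻¹) * e⁻¹ := by group
        _ = e * q⁻¹ * e⁻¹ := by rw [e1]
        _ = (e * q * e⁻¹)⁻¹ := by group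
        _ = q := by rw [e1, inv_inv])
    have h4 : e = 1 := by rw [← hE3 e he, pow_succ, pow_two, h3, one_mul]
    rw [h4, one_mul, inv_one, mul_one] at e1
    exact hq2 (mul_eq_one_iff_eq_inv.2 e1)
  let φ : E × Bool → {x | x ∈ Q ∧ x * x ≠ 1} := fun p =>
    ⟨p.1 * (if p.2 then q else q⁻¹) * (p.1 : G)⁻¹, conj_mem_of_mem_normalizer (hEQ p.1.2) (by
      split_ifs; exacts [hq, Q.inv_mem hq]), by
      rw [conj_mul]; split_ifs <;> simpa⟩
  have hφ : Function.Injective φ := by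
    rintro ⟨e, b⟩ ⟨e', b'⟩ hh
    have h3 : (e' : G)⁻¹ * e * (if b then q else q⁻¹) * ((e' : G)⁻¹ * e)⁻¹ =
        (if b' then q else q⁻¹) := by
      have h4 : (e : G) * (if b then q else q⁻¹) * (e : G)⁻¹ =
        e' * (if b' then q else q⁻¹) * (e' : G)⁻¹ := congrArg Subtype.val hh
      calc _ = (e' : G)⁻¹ * (e * (if b then q else q⁻¹) * (e : G)⁻¹) * e' := by group
        _ = _ := by rw [h4]; group
    have h5 := E.mul_mem (E.inv_mem e'.2) e.2
    cases b <;> cases b'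
    · rw [Subtype.ext (inv_mul_eq_one.1 (h1 (Q.inv_mem hq) hq' _ h5 h3))]
    · refine absurd ?_ (h2 _ h5)
      have h6 : (e' : G)⁻¹ * e * q⁻¹ * ((e' : G)⁻¹ * e)⁻¹ = q := h3
      rw [← inv_inj, inv_inv]
      refine Eq.trans ?_ h6
      group
    · exact absurd h3 (h2 _ h5)
    · rw [Subtype.ext (inv_mul_eq_one.1 (h1 hq hq2 _ h5 h3))]
  have := Nat.card_le_card_of_injective φ hφ
  rwa [Nat.card_prod, hE, Nat.card_eq_fintype_card, Fintype.card_bool, Nat.card_coe_set_eq] at this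

theorem ncard_add_ncard (Q : Subgroup G) :
    {x | x ∈ Q ∧ x * x = 1}.ncard + {x | x ∈ Q ∧ x * x ≠ 1}.ncard = Nat.card Q := by
  rw [← Set.ncard_union_eq (Set.disjoint_left.2 fun x h1 h2 => h2.2 h1.2), ← SetLike.coe_sort_coe,
    Nat.card_coe_set_eq]
  congr 1
  ext x
  simp only [Set.mem_union, Set.mem_ofPred_eq, SetLike.mem_coe]
  tauto

end Cfsg.Lib.Ord6
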