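import Cfsg.Agent.Six.Basic
import Cfsg.Agent.Solv.Factor

/-! A dihedral group of order ten acting on a normal `2`-subgroup of a group with element orders
at most six. -/

set_option autoImplicit false
set_option linter.unusedSectionVars false

namespace Cfsg.Lib.Ord6

open Subgroup Cfsg.Lib.Solv
open scoped Pointwise commutatorElement

universe u

variable {G : Type u} [Group G] [Finite G]

/-- The norm `q * q ^ s`. -/
def nrm (s q : G) : G := q * (s * q * s⁻¹)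

theorem nrm_mem {Q : Subgroup G} [hQ : Q.Normal] (s : G) {q : G} (hq : q ∈ Q) : nrm s q ∈ Q :=
  Q.mul_mem hq (hQ.conj_mem _ hq s)

theorem Six.nrm_mul_self (h : Six G) {Q : Subgroup G} [Q.Normal] (hQ : IsPGroup 2 Q) {s q : G}
    (hs : s * s = 1) (hq : q ∈ Q) : nrm s q * nrm s q = 1 := by
  have h1 : nrm s q = (q * s) ^ 2 := by
    rw [nrm, inv_eq_of_mul_eq_one_right hs, sq]; group
  obtain ⟨k, hk⟩ := PG.exists_pow_prime_pow_eq_one hQ (nrm_mem s hq)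
  have h2 : (q * s) ^ 2 ^ (k + 1) = 1 := by rw [pow_succ', pow_mul, ← h1, hk]
  rw [h1, ← pow_add]
  exact h.pow_four h2

theorem Six.exists_eq_nrm_mul (h : Six G) {Q : Subgroup G} [hn : Q.Normal] (hQ : IsPGroup 2 Q)
    {x s : G} (hx : orderOf x = 5) (hs : s * x * s⁻¹ = x⁻¹) {g : G} (hg : g ∈ Q) :
    ∃ q ∈ Q, ∃ r ∈ Q, g = nrm s q * (x * nrm s r * x⁻¹) := by
  have hs2 := h.mul_self_of_inv hx hs
  obtain ⟨y, hy, e⟩ := Fpf.exists_conj_eq_mul (u := x ^ 2) (le_normalizer_of_normal (mem_top _))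
    (h.fpf_five (orderOf_pow_five hx (by norm_num)) (coprime_five_of_two hQ)) hg
  have hq : s⁻¹ * y⁻¹ * s ∈ Q := by simpa using hn.conj_mem _ (Q.inv_mem hy) s⁻¹
  refine ⟨_, hq, x⁻¹ * (s⁻¹ * y⁻¹ * s) * x, by simpa using hn.conj_mem _ hq x⁻¹, ?_⟩
  rw [← inv_eq_of_mul_eq_one_right (h.nrm_mul_self hQ hs2 hq), eq_mul_inv_of_mul_eq e.symm]
  have h2 : ∀ q, x * nrm s (x⁻¹ * q * x) * x⁻¹ =
      q * (x * (s * x * s⁻¹)⁻¹ * (s * q * s⁻¹) * (s * x * s⁻¹) * x⁻¹) := fun q => by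
    simp only [nrm]; group
  rw [h2, hs]
  simp only [nrm, sq]
  group

theorem comm_of_mul_self {Q : Subgroup G} (h : ∀ q ∈ Q, q * q = 1) {a b : G} (ha : a ∈ Q)
    (hb : b ∈ Q) : a * b = b * a := by
  have h1 := inv_eq_of_mul_eq_one_right (h _ (Q.mul_mem ha hb))
  rw [mul_inv_rev, inv_eq_of_mul_eq_one_right (h _ ha), inv_eq_of_mul_eq_one_right (h _ hb)] at h1
  exact h1.symm

theorem comm_of_three {a b : G} (ha : a * a = 1) (hb : b * b = 1) (hab : a * b * (a * b) = 1) :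
    a * b = b * a := by
  have h1 := inv_eq_of_mul_eq_one_right hab
  rw [mul_inv_rev, inv_eq_of_mul_eq_one_right ha, inv_eq_of_mul_eq_one_right hb] at h1
  exact h1.symm

theorem mul_mul_self {a b : G} (ha : a * a = 1) (hb : b * b = 1) (hab : a * b = b * a) :
    a * b * (a * b) = 1 := by
  calc a * b * (a * b) = a * (b * a) * b := by group
    _ = (a * a) * (b * b) := by rw [← hab]; group
    _ = 1 := by rw [ha, hb, one_mul]

theorem Six.step (h : Six G) {Q : Subgroup G} [hn : Q.Normal] (hQ : IsPGroup 2 Q)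
    {x s : G} (hx : orderOf x = 5) (hs : s * x * s⁻¹ = x⁻¹)
    (hsq : ∀ q ∈ Q, q * q ∈ centralizer (Q : Set G)) : ∀ q ∈ Q, q * q = 1 := by
  have hs2 := h.mul_self_of_inv hx hs
  have hN := fun {q : G} (hq : q ∈ Q) => h.nrm_mul_self hQ hs2 hq
  have hxN : ∀ {q : G}, q ∈ Q → x * nrm s q * x⁻¹ * (x * nrm s q * x⁻¹) = 1 := fun hq => by
    rw [conj_mul, hN hq]; simp
  set Z := Q ⊓ centralizer (Q : Set G) with hZ
  have : Z.Normal := by rw [hZ]; infer_instance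
  have hZc : ∀ {z a : G}, z ∈ Z → a ∈ Q → a * z = z * a := fun hz ha => hz.2 _ ha
  have hZ2 : ∀ z ∈ Z, z * z = 1 := fun z hz => by
    obtain ⟨q, hq, r, hr, rfl⟩ := h.exists_eq_nrm_mul (hQ.to_le inf_le_left) hx hs hz
    exact mul_mul_self (hN hq.1) (hxN hr.1) (hZc (nrm_mem s hq) (hn.conj_mem _ (nrm_mem s hr.1) x)).symm
  have hcm : ∀ {a b : G}, a ∈ Q → b ∈ Q → ⁅a, b⁆ ∈ Z := fun {a b} ha hb => by
    refine ⟨Q.mul_mem (Q.mul_mem (Q.mul_mem ha hb) (Q.inv_mem ha)) (Q.inv_mem hb), ?_⟩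
    have h1 : ⁅a, b⁆ = a * b * (a * b) * (b⁻¹ * (a⁻¹ * a⁻¹) * b⁻¹⁻¹) * (b⁻¹ * b⁻¹) := by
      rw [commutatorElement_def]; group
    have h2 : b⁻¹ * (a⁻¹ * a⁻¹) * b⁻¹⁻¹ = a⁻¹ * a⁻¹ := by
      rw [hsq _ (Q.inv_mem ha) _ (Q.inv_mem hb)]; group
    rw [h1, h2]
    exact mul_mem (mul_mem (hsq _ (Q.mul_mem ha hb)) (hsq _ (Q.inv_mem ha))) (hsq _ (Q.inv_mem hb))
  have hNN : ∀ {a b : G}, a ∈ Q → b ∈ Q → nrm s a * nrm s b = nrm s b * nrm s a := fun {a b} ha hb => by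
    refine comm_of_three (hN ha) (hN hb) ?_
    have hsa := hn.conj_mem _ ha s
    have h1 : nrm s a * nrm s b = ⁅s * a * s⁻¹, b⁆ * nrm s (a * b) := by
      calc nrm s a * nrm s b = a * ⁅s * a * s⁻¹, b⁆ * (b * (s * (a * b) * s⁻¹)) := by
            simp only [nrm, commutatorElement_def]; group
        _ = _ := by rw [hZc (hcm hsa hb) ha, nrm]; group
    rw [h1]
    exact mul_mul_self (hZ2 _ (hcm hsa hb)) (hN (Q.mul_mem ha hb))
      (hZc (hcm hsa hb) (nrm_mem s (Q.mul_mem ha hb))).symm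
  have key : ∀ {a b : G}, a ∈ Q → b ∈ Q → x * ⁅nrm s a, x * nrm s b * x⁻¹⁆ * x⁻¹ =
      ⁅nrm s b, x * nrm s a * x⁻¹⁆ := fun {a b} ha hb => by
    set c := nrm s b with hc
    have hcQ : c ∈ Q := nrm_mem s hb
    set A := x * nrm s a * x⁻¹ with hA
    have hAQ : A ∈ Q := hn.conj_mem _ (nrm_mem s ha) x
    set D := x * nrm s (x * c * x⁻¹) * x⁻¹ with hD
    have hDQ : D ∈ Q := hn.conj_mem _ (nrm_mem s (hn.conj_mem _ hcQ x)) x
    have hAD : A * D = D * A := by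
      rw [hA, hD, conj_mul, conj_mul, hNN ha (hn.conj_mem _ hcQ x)]
    have h1 : s * c * s⁻¹ = b⁻¹ * c * b := by
      calc s * c * s⁻¹ = s * b * s⁻¹ * ((s * s) * b * (s * s)⁻¹) := by rw [hc, nrm]; group
        _ = b⁻¹ * c * b := by rw [hs2, hc, nrm]; group
    have h2 : D = x * (x * c * x⁻¹) * x⁻¹ * (b⁻¹ * c * b) := by
      calc D = x * (x * c * x⁻¹) * ((s * x * s⁻¹) * (s * c * s⁻¹) * (s * x * s⁻¹)⁻¹) * x⁻¹ := by
            rw [hD, nrm]; group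
        _ = _ := by rw [hs, h1]; group
    have hz := hcm (Q.inv_mem hb) (Q.inv_mem hcQ)
    have h3 : x * (x * c * x⁻¹) * x⁻¹ = D * (⁅b⁻¹, c⁻¹⁆ * c⁻¹) := by
      rw [h2, commutatorElement_def]; group
    have hz2 := hcm hAQ (Q.inv_mem hcQ)
    calc x * ⁅nrm s a, x * c * x⁻¹⁆ * x⁻¹ = ⁅A, x * (x * c * x⁻¹) * x⁻¹⁆ := by
          rw [hA, commutatorElement_def, commutatorElement_def]; group
      _ = A * D * ⁅b⁻¹, c⁻¹⁆ * (c⁻¹ * A⁻¹ * c) * ⁅b⁻¹, c⁻¹⁆⁻¹ * D⁻¹ := by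
          rw [h3, commutatorElement_def]; group
      _ = D * ⁅A, c⁻¹⁆ * D⁻¹ := by
          rw [mul_assoc (A * D), ← hZc hz (by simpa using hn.conj_mem _ (Q.inv_mem hAQ) c⁻¹), hAD,
            commutatorElement_def A]
          group
      _ = ⁅A, c⁻¹⁆⁻¹ := by
          rw [hZc hz2 hDQ, mul_inv_cancel_right, inv_eq_of_mul_eq_one_right (hZ2 _ hz2)]
      _ = ⁅c, A⁆ := by
          rw [commutatorElement_inv, inv_eq_of_mul_eq_one_right (hN hb)]
  intro g hg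
  obtain ⟨q, hq, r, hr, rfl⟩ := h.exists_eq_nrm_mul hQ hx hs hg
  refine mul_mul_self (hN hq) (hxN hr) (commutatorElement_eq_one_iff_mul_comm.1 ?_)
  refine Fpf.eq_one_of_conj_eq (h.fpf_five (orderOf_pow_five hx (i := 2) (by norm_num))
    (coprime_five_of_two hQ)) (hcm (nrm_mem s hq) (hn.conj_mem _ (nrm_mem s hr) x)).1 ?_
  calc x ^ 2 * ⁅nrm s q, x * nrm s r * x⁻¹⁆ * (x ^ 2)⁻¹ =
      x * (x * ⁅nrm s q, x * nrm s r * x⁻¹⁆ * x⁻¹) * x⁻¹ := by rw [sq]; group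
    _ = _ := by rw [key hq hr, key hr hq]

theorem mul_self_aux (n : ℕ) : ∀ (G : Type u) [Group G] [Finite G], Nat.card G = n → Six G →
    ∀ (Q : Subgroup G) [Q.Normal], IsPGroup 2 Q → ∀ x s : G, orderOf x = 5 → s * x * s⁻¹ = x⁻¹ →
      ∀ q ∈ Q, q * q = 1 := by
  induction n using Nat.strong_induction_on with
  | _ n ih =>
  intro G _ _ hn h Q _ hQ x s hx hs
  by_cases h0 : Q = ⊥
  · intro q hq
    rw [h0, mem_bot] at hq
    rw [hq, one_mul]
  have := Fact.mk Nat.prime_two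
  have := Fact.mk Nat.prime_five
  set Z := Q ⊓ centralizer (Q : Set G) with hZ
  have : Z.Normal := by rw [hZ]; infer_instance
  have hZ0 : Z ≠ ⊥ := PG.inf_centralizer_ne_bot hQ hQ le_normalizer h0
  have hlt : Nat.card (G ⧸ Z) < n := by
    rw [← hn, card_eq_card_quotient_mul_card_subgroup Z]
    exact lt_mul_of_one_lt_right Nat.card_pos ((one_lt_card_iff_ne_bot _).2 hZ0)
  refine h.step hQ hx hs fun q hq => ?_
  have h1 := ih _ hlt (G ⧸ Z) rfl (h.quotient Z) (Q.map (QuotientGroup.mk' Z)) (hQ.map _)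
    (QuotientGroup.mk' Z x) (QuotientGroup.mk' Z s) (orderOf_eq_prime (by
      rw [← map_pow, ← hx, pow_orderOf_eq_one, map_one]) fun h1 => ?_)
    (by rw [← map_inv, ← map_mul, ← map_mul, hs, map_inv]) _ (mem_map_of_mem _ hq)
  · exact ((QuotientGroup.eq_one_iff _).1 h1).2
  · have h2 := h.pow_four_of_mem hQ ((QuotientGroup.eq_one_iff _).1 h1).1
    rw [← orderOf_dvd_iff_pow_eq_one, hx] at h2
    omega

/-- A normal `2`-subgroup is elementary abelian if some element of order five is real. -/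
theorem Six.mul_self_of_dihedral (h : Six G) {Q : Subgroup G} [Q.Normal] (hQ : IsPGroup 2 Q)
    {x s : G} (hx : orderOf x = 5) (hs : s * x * s⁻¹ = x⁻¹) : ∀ q ∈ Q, q * q = 1 :=
  mul_self_aux _ G rfl h Q hQ x s hx hs

theorem Six.exists_inv (h : Six G) {Q : Subgroup G} [Q.Normal] (hQ : (Nat.card Q).Coprime 5)
    {x t : G} (hx : orderOf x = 5) (ht : t * x * t⁻¹ * x ∈ Q) :
    ∃ v ∈ Q, v * t * x * (v * t)⁻¹ = x⁻¹ := by
  obtain ⟨y, hy, e⟩ := Fpf.exists_conj_eq_mul (u := x⁻¹) (le_normalizer_of_normal (mem_top _))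
    (h.fpf_five (by rw [orderOf_inv, hx]) hQ) ht
  refine ⟨y⁻¹, Q.inv_mem hy, ?_⟩
  calc y⁻¹ * t * x * (y⁻¹ * t)⁻¹ = y⁻¹ * (t * x * t⁻¹ * x * x⁻¹) * y := by group
    _ = x⁻¹ := by rw [← e]; group

theorem isElementaryAbelian_of_mul_self {Q : Subgroup G} (h : ∀ q ∈ Q, q * q = 1) :
    IsElementaryAbelian 2 Q :=
  ⟨⟨⟨fun a b => Subtype.ext (comm_of_mul_self h a.2 b.2)⟩⟩, fun a ha => by rw [sq, h a ha]⟩

theorem isPGroup_of_mul_self {Q : Subgroup G} (h : ∀ q ∈ Q, q * q = 1) : IsPGroup 2 Q :=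
  PG.isPGroup_of_forall_mem fun x hx => ⟨1, by rw [pow_one, sq, h x hx]⟩

theorem Six.card_centralizer_sq (h : Six G) {V : Subgroup G} [hn : V.Normal] (hV : IsPGroup 2 V)
    {x s : G} (hx : orderOf x = 5) (hs : s * x * s⁻¹ = x⁻¹) :
    Nat.card (V ⊓ centralizer {s} : Subgroup G) ^ 2 = Nat.card V := by
  have hs2 := h.mul_self_of_inv hx hs
  have h2 := h.mul_self_of_dihedral hV hx hs
  have hN : ∀ q ∈ V, nrm s q ∈ V ⊓ centralizer {s} := fun q hq => by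
    refine ⟨nrm_mem s hq, mem_centralizer_singleton_iff.2 ?_⟩
    rw [eq_comm, ← mul_inv_eq_iff_eq_mul]
    calc s * nrm s q * s⁻¹ = s * q * s⁻¹ * ((s * s) * q * (s * s)⁻¹) := by rw [nrm]; group
      _ = _ := by
        rw [hs2, one_mul, inv_one, mul_one, comm_of_mul_self h2 (hn.conj_mem _ hq s) hq, nrm]
  have h3 := card_mul_card_inf_of_coe_eq_mul (H := V ⊓ centralizer {s})
    (K := MulAut.conj x • (V ⊓ centralizer {s})) (S := V) (by
      ext g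
      refine ⟨fun hg => ?_, ?_⟩
      · obtain ⟨q, hq, r, hr, rfl⟩ := h.exists_eq_nrm_mul hV hx hs hg
        exact Set.mul_mem_mul (hN q hq) (conj_mem_conj_smul x (hN r hr))
      · rintro ⟨a, ha, b, hb, rfl⟩
        obtain ⟨c, hc, rfl⟩ := mem_conj_smul_iff_exists.1 hb
        exact V.mul_mem ha.1 (hn.conj_mem _ hc.1 x))
  have h4 : V ⊓ centralizer {s} ⊓ MulAut.conj x • (V ⊓ centralizer {s}) = ⊥ := by
    refine eq_bot_iff.2 fun a ha => ?_
    have h5 := mem_centralizer_singleton_iff.1 ha.1.2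
    have h6 := mem_centralizer_singleton_iff.1 (mem_conj_smul.1 ha.2).2
    refine Fpf.eq_one_of_conj_eq (h.fpf_five (orderOf_pow_five hx (i := 2) (by norm_num))
      (coprime_five_of_two hV)) ha.1.1 ?_
    have h7 : s * a * s⁻¹ = a := by rw [← h5]; group
    have h8 : s * (x⁻¹ * a * x) * s⁻¹ = x⁻¹ * a * x := by rw [← h6]; group
    calc x ^ 2 * a * (x ^ 2)⁻¹ = x * ((s * x * s⁻¹)⁻¹ * (s * a * s⁻¹) * (s * x * s⁻¹)) * x⁻¹ := by
          rw [hs, h7, sq]; group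
      _ = x * (s * (x⁻¹ * a * x) * s⁻¹) * x⁻¹ := by group
      _ = a := by rw [h8]; group
  rw [h4, card_bot, mul_one, card_conj_smul] at h3
  rw [sq, h3]

theorem Six.card_modEq_five (h : Six G) {V : Subgroup G} [V.Normal] (hV : (Nat.card V).Coprime 5)
    {x : G} (hx : orderOf x = 5) : Nat.card V % 5 = 1 := by
  have := Fpf.card_modEq_one (K := V) (H := zpowers x) le_normalizer_of_normal
    (Fpf.zpowers_of_prime (hx ▸ Nat.prime_five) (h.fpf_five hx hV))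
  rwa [Nat.card_zpowers, hx] at this

end Cfsg.Lib.Ord6
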